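import Cfsg.Agent.Schur.Mx
import Cfsg.Agent.Comp.MatP

set_option autoImplicit false

/-! Covers of simple presented groups in special linear groups. -/

namespace Cfsg.Agent.H3x
open Subgroup Cfsg.Agent.Comp Cfsg.Agent.Schur Matrix

theorem cover_sl {G₀ : Type} [Group G₀] [IsSimpleGroup G₀] (hp : ¬ (Nat.card G₀).Prime) {s : ℕ → G₀} {L : ℕ}
    {R : List (List ℕ)} (h : IsPres s L R) (hR : ∀ w ∈ R, ∀ x ∈ w, x < L) {n : ℕ} {F : Type} [Field F]
    {m : ℕ → Matrix (Fin n) (Fin n) F} {Zs : List (List ℕ)} (hE : ∀ p ∈ R.zip Zs, ev m p.1 = ev m p.2)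
    (hZ : Zs.length = R.length ∧ (∀ w ∈ Zs, ∀ x ∈ w, x = L) ∧ (∀ x < L, ∃ w ∈ R, w.head? = some x) ∧
      (∃ w ∈ R, (w, [L]) ∈ R.zip Zs) ∧ 0 < L) {c : F} (hc : m L = c • 1) {q : ℕ} (hq : q.Prime)
    (h1 : c ^ q = 1) (h2 : c ≠ 1) (h3 : q ∣ n) {i j : Fin n} (h4 : i ≠ j) (h5 : m 0 i j ≠ 0) :
    ∃ H : Subgroup (SpecialLinearGroup (Fin n) F), Nat.card (center H) = q ∧
      Nonempty (G₀ ≃* H ⧸ center H) := by
  classical
  obtain ⟨z1, z2, z3, ⟨w0, z4, z5⟩, z6⟩ := hZ
  have := Fact.mk hq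
  have nc : ¬ IsMulCommutative G₀ := fun _ => hp (Group.is_simple_iff_prime_card.mp inferInstance)
  have cn : c ^ n = 1 := by obtain ⟨k, rfl⟩ := h3; rw [pow_mul, h1, one_pow]
  have k1 : ∀ w ∈ R, ∃ k, ev m w = (c • 1) ^ k := fun w hw => by
    obtain ⟨i, hi, rfl⟩ := List.getElem_of_mem hw
    have := hE (R[i], Zs[i]) (List.mem_iff_getElem.mpr ⟨i, by simp [z1, hi], by simp⟩)
    rw [List.eq_replicate_of_mem (z2 _ (List.getElem_mem (l := Zs) (by omega))), ev_replicate, hc] at this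
    exact ⟨_, this⟩
  have dz : (c • (1 : Matrix (Fin n) (Fin n) F)).det = 1 := by simp [cn]
  have k2 : ∀ w ∈ R, (ev m w).det = 1 := fun w hw => by
    obtain ⟨k, e⟩ := k1 w hw
    rw [e, det_pow, dz, one_pow]
  have k3 : ∀ x < L, (m x).det ≠ 0 := fun x hx e => by
    obtain ⟨w, hw, e2⟩ := z3 x hx
    obtain ⟨v, rfl⟩ := List.head?_eq_some_iff.mp e2
    simpa [e] using k2 _ hw
  have k4 : ∀ x < L, (m x).det = 1 := by
    let u : ℕ → Fˣ := fun x => if h : (m x).det = 0 then 1 else Units.mk0 _ h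
    have e : ∀ x < L, Units.coeHom F (u x) = detMonoidHom (m x) := fun x hx => by simp [u, k3 x hx]
    obtain ⟨φ, hφ⟩ := h.univ _ u fun w hw => Units.ext (by
      rw [show ((ev u w : Fˣ) : F) = _ from map_ev _ (Units.coeHom F) w, ev_congr fun x hx => e x (hR w hw x hx),
        ← map_ev]
      exact k2 w hw)
    have := φ.normal_ker.eq_bot_or_eq_top.resolve_left fun e => nc ⟨⟨fun a b =>
      (MonoidHom.ker_eq_bot_iff φ).mp e (by rw [map_mul, map_mul, mul_comm])⟩⟩
    intro x hx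
    have h6 : φ (s x) = 1 := (this ▸ mem_top _ : s x ∈ φ.ker)
    exact (e x hx).symm.trans (by rw [← hφ x hx, h6]; rfl)
  let t : ℕ → SpecialLinearGroup (Fin n) F := fun x => if h : (m x).det = 1 then ⟨m x, h⟩ else 1
  have k0 : ∀ x < L, slToMat n F (t x) = m x := fun x hx => congrArg (slToMat n F) (dif_pos (k4 x hx))
  have k5 : ∀ w ∈ R, ((ev t w : SpecialLinearGroup (Fin n) F) : Matrix _ _ F) = ev m w := fun w hw =>
    (map_ev _ (slToMat n F) w).trans (ev_congr fun x hx => k0 x (hR w hw x hx))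
  let t' : ℕ → gen t L := fun x => if h : x < L then ⟨t x, letter_mem_gen h⟩ else 1
  have k6 : ∀ w ∈ R, ((ev t' w : gen t L) : SpecialLinearGroup (Fin n) F) = ev t w := fun w hw =>
    (map_ev _ (gen t L).subtype w).trans (ev_congr fun x hx => by simp [t', hR w hw x hx])
  let ρ := (slToMat n F).comp (gen t L).subtype
  have inj : Function.Injective ρ := (slToMat_injective n).comp (gen t L).subtype_injective
  have k7 : ∀ w ∈ R, ρ (ev t' w) = ev m w := fun w hw => (congrArg _ (k6 w hw)).trans (k5 w hw)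
  have k8 : ρ (ev t' w0) = c • 1 := by rw [k7 _ z4, hE _ z5, ev_single, hc]
  generalize ev t' w0 = z at k8
  have zc : zpowers z ≤ center _ := zpowers_le.mpr (mem_center_iff.mpr fun g => inj (by simp [k8]))
  have : (zpowers z).Normal := ⟨fun x hx g => by rw [mem_center_iff.mp (zc hx) g]; simpa using hx⟩
  obtain ⟨e, he⟩ := h.equiv_of_simple hR (fun x => QuotientGroup.mk' (zpowers z) (t' x)) (fun w hw => by
      obtain ⟨k, e⟩ := k1 w hw
      rw [← map_ev]
      exact (QuotientGroup.eq_one_iff _).mpr ⟨k, inj (by simp [k8, k7 w hw, e])⟩) z6 fun e => by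
    obtain ⟨k, e⟩ := (IsOfFinOrder.mem_powers_iff_mem_zpowers (isOfFinOrder_iff_pow_eq_one.mpr ⟨q, hq.pos, inj (by
      simp [k8, smul_pow, h1])⟩)).mpr ((QuotientGroup.eq_one_iff _).mp e)
    have := congrArg ρ e
    rw [map_pow, k8, show ρ (t' 0) = m 0 from (congrArg ρ (dif_pos z6)).trans (k0 0 z6)] at this
    exact h5 (by simp [← this, smul_pow, h4])
  have tp : gen (fun x => QuotientGroup.mk' (zpowers z) (t' x)) L = ⊤ := eq_top_iff.mpr fun y _ => by
    obtain ⟨⟨g, hg⟩, rfl⟩ := QuotientGroup.mk'_surjective _ y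
    obtain ⟨g', h3, h4⟩ := (gen_le (K := ((gen (fun x => QuotientGroup.mk' (zpowers z) (t' x)) L).comap
      (QuotientGroup.mk' (zpowers z))).map (gen t L).subtype)).mpr (fun y hy => ⟨t' y,
        letter_mem_gen (s := fun x => QuotientGroup.mk' (zpowers z) (t' x)) hy, by simp [t', hy]⟩) hg
    rwa [← show g' = ⟨g, hg⟩ from Subtype.ext h4]
  let e' := e.trans ((MulEquiv.subgroupCongr tp).trans topEquiv)
  have ce : zpowers z = center _ := le_antisymm zc fun g hg => by
    have := e'.symm.isSimpleGroup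
    have h7 := (inferInstance : (center (gen t L ⧸ zpowers z)).Normal).eq_bot_or_eq_top.resolve_right
      fun h => nc ⟨⟨fun a b => e'.injective (by
        rw [map_mul, map_mul]; exact mem_center_iff.mp (h ▸ mem_top _ : e' b ∈ center _) _)⟩⟩
    refine (QuotientGroup.eq_one_iff _).mp (mem_bot.mp (h7 ▸ mem_center_iff.mpr fun y => ?_))
    obtain ⟨y, rfl⟩ := QuotientGroup.mk_surjective y
    rw [← QuotientGroup.mk_mul, ← QuotientGroup.mk_mul, mem_center_iff.mp hg]
  refine ⟨gen t L, ?_, ⟨e'.trans (QuotientGroup.quotientMulEquivOfEq ce)⟩⟩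
  rw [← ce, Nat.card_zpowers]
  refine orderOf_eq_prime (inj (by simp [k8, smul_pow, h1])) fun e => h2 ?_
  have := congrFun (congrFun k8 i) i
  simpa [e] using this.symm

end Cfsg.Agent.H3x
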