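import Mathlib
import Cfsg.Prelude.Def_KGroupFacts
import Cfsg.Prelude.Def_CaseTheorems

set_option autoImplicit false

/-! Uniqueness of perfect central extensions with a kernel of maximal order. -/

namespace Cfsg.Agent.H3x
open Subgroup
open scoped commutatorElement

theorem perfect_of_central {P G : Type*} [Group P] [Group G] (σ : P →* G) (hk : σ.ker ≤ center P)
    (hs : ∀ g, ∃ x ∈ commutator P, σ x = σ g) : commutator (commutator P) = ⊤ := by
  apply map_injective (commutator P).subtype_injective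
  rw [map_subtype_commutator, ← MonoidHom.range_eq_map, range_subtype]
  refine le_antisymm (commutator_mono le_top le_top) (commutator_le.mpr fun a _ b _ => ?_)
  obtain ⟨x, hx, h1⟩ := hs a
  obtain ⟨y, hy, h2⟩ := hs b
  have a1 := mem_center_iff.mp (hk (show x⁻¹ * a ∈ σ.ker by simp [h1]))
  have a2 := mem_center_iff.mp (hk (show y⁻¹ * b ∈ σ.ker by simp [h2]))
  have : ⁅a, b⁆ = ⁅x, y⁆ := by
    obtain ⟨u, rfl⟩ : ∃ u, a = x * u := ⟨x⁻¹ * a, by group⟩
    obtain ⟨v, rfl⟩ : ∃ v, b = y * v := ⟨y⁻¹ * b, by group⟩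
    simp only [inv_mul_cancel_left] at a1 a2
    calc ⁅x * u, y * v⁆ = x * (u * (y * v * u⁻¹)) * x⁻¹ * (v⁻¹ * y⁻¹) := by
          rw [commutatorElement_def]; group
      _ = x * y * (v * x⁻¹) * (v⁻¹ * y⁻¹) := by rw [← a1]; group
      _ = ⁅x, y⁆ := by rw [← a2, commutatorElement_def]; group
  exact this ▸ commutator_mem_commutator hx hy

theorem surj_comm {P L : Type*} [Group P] [Group L] (f : P →* L) (hf : Function.Surjective f)
    (hp : commutator L = ⊤) : Function.Surjective (f.comp (commutator P).subtype) := fun x => by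
  have : x ∈ (commutator P).map f := by
    rw [commutator_def, map_commutator, ← MonoidHom.range_eq_map, MonoidHom.range_eq_top.mpr hf,
      ← commutator_def, hp]; trivial
  obtain ⟨y, hy, rfl⟩ := this
  exact ⟨⟨y, hy⟩, rfl⟩

theorem card_surj {L G : Type*} [Group L] [Group G] (τ : L →* G) (hτ : Function.Surjective τ) :
    Nat.card L = Nat.card G * Nat.card τ.ker := by
  rw [card_eq_card_quotient_mul_card_subgroup τ.ker,
    Nat.card_congr (QuotientGroup.quotientKerEquivOfSurjective τ hτ).toEquiv]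

theorem unique_cover {L₁ L₂ : Type*} {G : Type} [Group L₁] [Finite L₁] [Group L₂] [Finite L₂] [Group G]
    (σ₁ : L₁ →* G) (σ₂ : L₂ →* G) (s₁ : Function.Surjective σ₁) (s₂ : Function.Surjective σ₂)
    (p₁ : commutator L₁ = ⊤) (p₂ : commutator L₂ = ⊤) (k₁ : σ₁.ker ≤ center L₁) (k₂ : σ₂.ker ≤ center L₂)
    {e m : ℕ} (e₁ : ∀ x ∈ σ₁.ker, x ^ e = 1) (e₂ : ∀ x ∈ σ₂.ker, x ^ e = 1)
    (c₁ : Nat.card σ₁.ker = m) (c₂ : Nat.card σ₂.ker = m)
    (h : ∀ (Γ : Type) [Group Γ] [Finite Γ] (σ : Γ →* G), IsStemExtension σ → (∀ x ∈ σ.ker, x ^ e = 1) →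
      Nat.card σ.ker ≤ m) : Nonempty (L₁ ≃* L₂) := by
  let P := (σ₁.comp (MonoidHom.fst L₁ L₂)).eqLocus (σ₂.comp (MonoidHom.snd L₁ L₂))
  let f₁ : P →* L₁ := (MonoidHom.fst L₁ L₂).comp P.subtype
  let f₂ : P →* L₂ := (MonoidHom.snd L₁ L₂).comp P.subtype
  have u₁ : Function.Surjective f₁ := fun x => (s₂ (σ₁ x)).elim fun y hy => ⟨⟨(x, y), hy.symm⟩, rfl⟩
  have u₂ : Function.Surjective f₂ := fun y => (s₁ (σ₂ y)).elim fun x hx => ⟨⟨(x, y), hx⟩, rfl⟩
  have kk : ∀ x : P, σ₁ (f₁ x) = 1 → f₁ x ∈ σ₁.ker ∧ f₂ x ∈ σ₂.ker := fun x hx => ⟨hx, x.2.symm.trans hx⟩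
  have kc : (σ₁.comp f₁).ker ≤ center P := fun x hx => mem_center_iff.mpr fun y =>
    Subtype.ext (Prod.ext (mem_center_iff.mp (k₁ (kk x hx).1) _) (mem_center_iff.mp (k₂ (kk x hx).2) _))
  have pf := perfect_of_central (σ₁.comp f₁) kc fun g => by
    obtain ⟨x, hx⟩ := surj_comm f₁ u₁ p₁ (f₁ g)
    exact ⟨x, x.2, congrArg σ₁ hx⟩
  obtain ⟨Γ, _, _, ⟨ε⟩⟩ := Finite.exists_type_univ_nonempty_mulEquiv.{_, 0} (commutator P)
  let ι : Γ →* P := (commutator P).subtype.comp ε.symm.toMonoidHom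
  have hι : Function.Injective ι := (commutator P).subtype_injective.comp ε.symm.injective
  let σ : Γ →* G := (σ₁.comp f₁).comp ι
  have w₁ : Function.Surjective (f₁.comp ι) := (surj_comm f₁ u₁ p₁).comp ε.symm.surjective
  have w₂ : Function.Surjective (f₂.comp ι) := (surj_comm f₂ u₂ p₂).comp ε.symm.surjective
  have hσ : Function.Surjective σ := s₁.comp w₁
  have hm := h Γ σ ⟨hσ, fun x hx => mem_center_iff.mpr fun y => hι (by
    rw [map_mul, map_mul]; exact mem_center_iff.mp (kc hx) _), fun x _ => by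
      have : x ∈ (commutator (commutator P)).map ε.toMonoidHom := by
        rw [pf]; exact ⟨ε.symm x, trivial, by simp⟩
      rw [_root_.commutator_def (commutator P), map_commutator] at this
      exact commutator_mono le_top le_top this⟩ fun x hx => hι (by
    rw [map_pow, map_one]
    exact Subtype.ext (Prod.ext (e₁ _ (kk _ hx).1) (e₂ _ (kk _ hx).2)))
  have b₁ : Function.Bijective (f₁.comp ι) := w₁.bijective_of_nat_card_le (by
    rw [card_surj σ hσ, card_surj σ₁ s₁, c₁]; exact Nat.mul_le_mul_left _ hm)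
  have b₂ : Function.Bijective (f₂.comp ι) := w₂.bijective_of_nat_card_le (by
    rw [card_surj σ hσ, card_surj σ₂ s₂, c₂]; exact Nat.mul_le_mul_left _ hm)
  exact ⟨(MulEquiv.ofBijective _ b₁).symm.trans (MulEquiv.ofBijective _ b₂)⟩

theorem card_le_four {K : Type*} [Group K] (π : Multiplicative (ZMod 3 × ZMod 4 × ZMod 4) →* K)
    (hπ : Function.Surjective π) (h : ∀ x : K, x ^ 2 = 1) : Nat.card K ≤ 4 := by
  have key : ∀ a : Multiplicative (ZMod 3 × ZMod 4 × ZMod 4), ∃ (i : Fin 2 × Fin 2) (b : _),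
      a = Multiplicative.ofAdd (0, (i.1.1 : ZMod 4), (i.2.1 : ZMod 4)) * b ^ 2 := by decide +kernel
  have := Nat.card_le_card_of_surjective (fun i : Fin 2 × Fin 2 =>
    π (Multiplicative.ofAdd (0, (i.1.1 : ZMod 4), (i.2.1 : ZMod 4)))) fun y => by
    obtain ⟨a, rfl⟩ := hπ y
    obtain ⟨i, b, rfl⟩ := key a
    exact ⟨i, by rw [map_mul, map_pow, h, mul_one]⟩
  simpa using this

end Cfsg.Agent.H3x
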