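import Cfsg.Agent.H3x.Hyp
import Cfsg.Agent.SchurG.Co1.Iso
import Cfsg.Agent.Schur.Co1.Base

set_option autoImplicit false
set_option maxRecDepth 100000

/-! Centralisers in the Conway groups. -/

namespace Cfsg.Agent.H3x.Lc
open Cfsg.Agent.Comp Cfsg.Agent.Schur Cfsg.Agent.R3 Cfsg.Agent.Leech Subgroup Cfsg.Agent.SchurG.Co1
open Cfsg.Agent.Golay (force force_eq In)

theorem st0 {bs : List ℕ} {m : ℕ} (h : BaseGe (genW (sig T) lowW1) bs m) :
    BaseGe (genW (sig T) (letters 16)) (0 :: bs) (98280 * m) :=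
  BaseGe.step (W' := lowW1) (b := 0) (n := 98280) ok (le_of_subOK eqs (show subOK (letters 16) lowW1 E = true by decide +kernel)) (by decide +kernel)
    (le_ncard_of_ivl (a := 0) ok (by norm_num) (show Nat.beq (grow T (letters 16) [15, 11, 12, 13, 10, 14, 15, 11, 12, 8, 6, 10, 14, 15, 12, 11, 13, 15, 14, 12, 11, 8, 1, 10, 0] (pt (nat_lit 0))) (ivl (nat_lit 0) (nat_lit 98280)) = true by decide +kernel)) h

theorem st1 {bs : List ℕ} {m : ℕ} (h : BaseGe (genW (sig T) lowW2) bs m) :
    BaseGe (genW (sig T) lowW1) (3095 :: bs) (4600 * m) :=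
  BaseGe.step (W' := lowW2) (b := 3095) (n := 4600) ok (le_of_subOK eqs (show subOK lowW1 lowW2 E = true by decide +kernel)) (by decide +kernel)
    (le_ncard_of_ivl (a := 1) ok (by norm_num) (show Nat.beq (grow T lowW1 [14, 10, 11, 12, 14, 8, 10, 11, 8, 14, 12, 10, 13, 8, 11, 12, 10, 14, 3, 1] (pt (nat_lit 3095))) (ivl (nat_lit 1) (nat_lit 4600)) = true by decide +kernel)) h

theorem st2 {bs : List ℕ} {m : ℕ} (h : BaseGe (genW (sig T) lowW3) bs m) :
    BaseGe (genW (sig T) lowW2) (399 :: bs) (891 * m) :=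
  BaseGe.step (W' := lowW3) (b := 399) (n := 891) ok (le_of_subOK eqs (show subOK lowW2 lowW3 E = true by decide +kernel)) (by decide +kernel)
    (le_ncard_of_orbGe ok (by norm_num) (show orbGe (nat_lit 98280) (nat_lit 17) T lowW2 [13, 12, 8, 10, 11, 13, 12, 10, 8, 4, 11, 13, 12, 10, 8, 11, 12, 3, 0] (nat_lit 399) (nat_lit 891) = true by decide +kernel)) h

theorem st3 {bs : List ℕ} {m : ℕ} (h : BaseGe (genW (sig T) lowW4) bs m) :
    BaseGe (genW (sig T) lowW3) (455 :: bs) (42 * m) :=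
  BaseGe.step (W' := lowW4) (b := 455) (n := 42) ok (le_of_subOK eqs (show subOK lowW3 lowW4 E = true by decide +kernel)) (by decide +kernel)
    (le_ncard_of_orbGe ok (by norm_num) (show orbGe (nat_lit 98280) (nat_lit 17) T lowW3 [12, 8, 10, 11, 12, 10, 4, 1, 12] (nat_lit 455) (nat_lit 42) = true by decide +kernel)) h

theorem st4 {bs : List ℕ} {m : ℕ} (h : BaseGe (genW (sig T) lowW5) bs m) :
    BaseGe (genW (sig T) lowW4) (1 :: bs) (40 * m) :=
  BaseGe.step (W' := lowW5) (b := 1) (n := 40) ok (le_of_subOK eqs (show subOK lowW4 lowW5 E = true by decide +kernel)) (by decide +kernel)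
    (le_ncard_of_orbGe ok (by norm_num) (show orbGe (nat_lit 98280) (nat_lit 17) T lowW4 [11, 0, 1, 2, 4, 6, 11] (nat_lit 1) (nat_lit 40) = true by decide +kernel)) h

theorem st5 {bs : List ℕ} {m : ℕ} (h : BaseGe (genW (sig T) lowW6) bs m) :
    BaseGe (genW (sig T) lowW5) (668 :: bs) (4 * m) :=
  BaseGe.step (W' := lowW6) (b := 668) (n := 4) ok (le_of_subOK eqs (show subOK lowW5 lowW6 E = true by decide +kernel)) (by decide +kernel)
    (le_ncard_of_orbGe ok (by norm_num) (show orbGe (nat_lit 98280) (nat_lit 17) T lowW5 [10, 8, 8] (nat_lit 668) (nat_lit 4) = true by decide +kernel)) h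

theorem st6 {bs : List ℕ} {m : ℕ} (h : BaseGe (genW (sig T) lowW7) bs m) :
    BaseGe (genW (sig T) lowW6) (28 :: bs) (3 * m) :=
  BaseGe.step (W' := lowW7) (b := 28) (n := 3) ok (le_of_subOK eqs (show subOK lowW6 lowW7 E = true by decide +kernel)) (by decide +kernel)
    (le_ncard_of_orbGe ok (by norm_num) (show orbGe (nat_lit 98280) (nat_lit 17) T lowW6 [8, 8] (nat_lit 28) (nat_lit 3) = true by decide +kernel)) h

theorem st7 {bs : List ℕ} {m : ℕ} (h : BaseGe (genW (sig T) lowW8) bs m) :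
    BaseGe (genW (sig T) lowW7) (3192 :: bs) (32 * m) :=
  BaseGe.step (W' := lowW8) (b := 3192) (n := 32) ok (le_of_subOK eqs (show subOK lowW7 lowW8 E = true by decide +kernel)) (by decide +kernel)
    (le_ncard_of_orbGe ok (by norm_num) (show orbGe (nat_lit 98280) (nat_lit 17) T lowW7 [4, 5, 6, 7, 0, 5] (nat_lit 3192) (nat_lit 32) = true by decide +kernel)) h

theorem st8 {bs : List ℕ} {m : ℕ} (h : BaseGe (genW (sig T) lowW9) bs m) :
    BaseGe (genW (sig T) lowW8) (3650 :: bs) (2 * m) :=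
  BaseGe.step (W' := lowW9) (b := 3650) (n := 2) ok (le_of_subOK eqs (show subOK lowW8 lowW9 E = true by decide +kernel)) (by decide +kernel)
    (le_ncard_of_orbGe ok (by norm_num) (show orbGe (nat_lit 98280) (nat_lit 17) T lowW8 [3] (nat_lit 3650) (nat_lit 2) = true by decide +kernel)) h

theorem st9 {bs : List ℕ} {m : ℕ} (h : BaseGe (genW (sig T) lowW10) bs m) :
    BaseGe (genW (sig T) lowW9) (286 :: bs) (2 * m) :=
  BaseGe.step (W' := lowW10) (b := 286) (n := 2) ok (le_of_subOK eqs (show subOK lowW9 lowW10 E = true by decide +kernel)) (by decide +kernel)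
    (le_ncard_of_orbGe ok (by norm_num) (show orbGe (nat_lit 98280) (nat_lit 17) T lowW9 [2] (nat_lit 286) (nat_lit 2) = true by decide +kernel)) h

theorem st10 {bs : List ℕ} {m : ℕ} (h : BaseGe (genW (sig T) lowW11) bs m) :
    BaseGe (genW (sig T) lowW10) (1750 :: bs) (2 * m) :=
  BaseGe.step (W' := lowW11) (b := 1750) (n := 2) ok (le_of_subOK eqs (show subOK lowW10 lowW11 E = true by decide +kernel)) (by decide +kernel)
    (le_ncard_of_orbGe ok (by norm_num) (show orbGe (nat_lit 98280) (nat_lit 17) T lowW10 [1] (nat_lit 1750) (nat_lit 2) = true by decide +kernel)) h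

theorem st11 {bs : List ℕ} {m : ℕ} (h : BaseGe (genW (sig T) []) bs m) :
    BaseGe (genW (sig T) lowW11) (4407 :: bs) (2 * m) :=
  BaseGe.step (W' := []) (b := 4407) (n := 2) ok (le_of_subOK eqs (show subOK lowW11 [] E = true by decide +kernel)) (by decide +kernel)
    (le_ncard_of_orbGe ok (by norm_num) (show orbGe (nat_lit 98280) (nat_lit 17) T lowW11 [0] (nat_lit 4407) (nat_lit 2) = true by decide +kernel)) h

theorem cardR : Nat.card phi.range = 4157776806543360000 := by
  rw [rep.range, rep.card_gen card.2.2, card.2.1]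

def bs : List ℕ := [0, 3095, 399, 455, 1, 668, 28, 3192, 3650, 286, 1750, 4407]

theorem base : Comp.IsBase phi.range bs :=
  BaseGe.isBase (st0 (st1 (st2 (st3 (st4 (st5 (st6 (st7 (st8 (st9 (st10 (st11 (BaseGe.nil _))))))))))))) rep.range.ge (by rw [cardR]) (by norm_num)

theorem pr : PR phi 98280 42305421312000 T :=
  ⟨card.2.2, rep.bd, trans, card.2.1.trans (by norm_num), ok, Schur.Co1.allIn⟩

theorem gr {D : ℕ} (h : invZ T W0 D = true) : Gr phi.range 98280 17 D T :=
  ⟨ok, pr.all, by rintro _ ⟨g, rfl⟩; exact rep.bd g, by norm_num, by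
    rintro _ ⟨g, rfl⟩ hg
    exact inv_of_invS ok (W := W0) (invZ_eq ▸ h)
      (rep.map_genW (W := W0) (by decide +kernel) ▸ mem_map_of_mem phi ((stab.2 g).mpr hg))⟩

theorem gr1 : Gr phi.range 98280 17 (ivl (nat_lit 1) (nat_lit 4600)) T := gr (by decide +kernel)

theorem gr2 : Gr phi.range 98280 17 (ivl (nat_lit 51176) (nat_lit 47104)) T := gr (by decide +kernel)

/-- zero if the words have the same value up to sign -/
noncomputable def dif (X u v : List ℕ) : ℕ :=
  force (evc X u) fun a => force (evc X v) fun b => Nat.mul (Nat.xor a b) (Nat.xor a (gmul gneg b))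

theorem dif_iff {X : List ℕ} {g : ℕ → Co0} (hg : ∀ x < X.length, gc (g x) = X.getD x 0) {u v : List ℕ}
    (h : ∀ x ∈ u ++ v, x < X.length) : dif X u v = 0 ↔
      ev (fun x => QuotientGroup.mk' (center Co0) (g x)) u = ev (fun x => QuotientGroup.mk' (center Co0) (g x)) v := by
  rw [dif, force_eq, force_eq, ← gc_ev fun x hx => hg x (h x (List.mem_append_left _ hx)),
    ← gc_ev fun x hx => hg x (h x (List.mem_append_right _ hx)), ← gc_negCo, gmul_gc, ← map_ev, ← map_ev,
    QuotientGroup.mk'_apply, QuotientGroup.mk'_apply, eq_comm (b := QuotientGroup.mk _), QuotientGroup.eq,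
    Leech.mem_center_iff, inv_mul_eq_one, inv_mul_eq_iff_eq_mul,
    mem_center_iff.mp ((Leech.mem_center_iff _).mpr (Or.inr rfl)) (ev g v), eq_comm (b := ev g u),
    ← gc_injective.eq_iff, ← gc_injective.eq_iff (a := ev g u)]
  exact Nat.mul_eq_zero.trans (or_congr Nat.xor_eq_zero_iff Nat.xor_eq_zero_iff)

theorem link : ∃ (t : ℕ → Co0) (e : G ≃* Spor.Co1), (∀ x < cs.length, gc (t x) = cs.getD x 0) ∧
    ∀ x < 16, e (s x) = QuotientGroup.mk' _ (t x) := by
  have := finite_co0
  have := simple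
  obtain ⟨t, ht⟩ := exists_letters inH
  obtain ⟨e, he⟩ := pres.equiv_of_simple hR (fun x => QuotientGroup.mk' (center Co0) (t x : Co0))
    (fun w hw => (dif_iff ht (v := []) (by rw [List.append_nil]; exact hR w hw)).mp
      ((by decide +kernel : ∀ w ∈ R, dif cs w [] = 0) w hw)) (x := 0) (by norm_num)
    fun h => absurd ((dif_iff ht (u := [0]) (v := []) (by decide)).mpr (by simpa using h)) (by decide +kernel)
  have h := eq_top_of_le_card _ ((card_co1.trans card.2.1.symm).le.trans (Nat.card_congr e.toEquiv).le)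
  exact ⟨fun x => t x, e.trans ((MulEquiv.subgroupCongr h).trans topEquiv), ht, he⟩

/-- the check for the order of a centraliser -/
noncomputable def chk (k : ℕ) (z u : List ℕ) (ys : List (ℕ × ℕ)) (P : List (ℕ × List ℕ)) (bd : ℕ) : Bool :=
  frc (moved (nat_lit 98280) (nat_lit 17) T z (nat_lit 17)) fun S => cenC (nat_lit 98280) (nat_lit 17)
    (ivl (nat_lit 1) (nat_lit 4600)) (ivl (nat_lit 51176) (nat_lit 47104)) k T z u ys P [S] bd

theorem cent {g : Co0} {z u : List ℕ} (hz : ∀ x ∈ z, x < 16) (h : evc cs z = gc g) {k bd : ℕ}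
    {ys : List (ℕ × ℕ)} (hy : ys.map Prod.fst = bs) {P : List (ℕ × List ℕ)} (hc : chk k z u ys P bd = true) :
    Nat.card (centralizer ({QuotientGroup.mk' _ g} : Set Spor.Co1)) ≤ bd := by
  obtain ⟨t, e, h1, h2⟩ := link
  have h3 : e (ev s z) = QuotientGroup.mk' _ g := by
    rw [← gc_injective ((gc_ev fun x hx => h1 x (hz x hx)).trans h), map_ev t]
    exact (map_ev s e.toMonoidHom z).trans (ev_congr fun x hx => h2 x (hz x hx))
  rw [← h3, ← Nat.card_congr (cenEquiv e _).toEquiv]
  exact pr.centC gr1 gr2 (hy ▸ base) hc (rep.ev_eq hz)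

theorem sect {X : List ℕ} (hin : In gc ⊤ X) {j L : ℕ} (hp : (2 * j + 1).Prime) (hL : X.length = 1 + L)
    {U : Type} [Group U] [IsSimpleGroup U] {u : ℕ → U} {RU : List (List ℕ)} (hU : IsPres u L RU)
    (hR : ∀ w ∈ RU, ∀ x ∈ w, x < L) (h1 : evc X (List.replicate (2 * j + 1) 0) = gneg) (h2 : evc X [0, 0] ≠ gone)
    (h3 : ∀ x < L, evc X [1 + x, 0] = evc X [0, 1 + x])
    (h4 : ∀ r ∈ RU, force (evc X (r.map (1 + ·))) (fun a => Golay.sumL (fun k =>
      if a = evc X (List.replicate k 0) then 1 else 0) (List.range (4 * j + 2))) ≠ 0)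
    {x y : ℕ} (hx : x < L) (hy : y < L) (h5 : evc X [1 + x, 1 + y] ≠ evc X [1 + y, 1 + x])
    {z v : List ℕ} (hz : ∀ x ∈ z, x < 16) (h6 : evc cs z = evc X [0, 0]) {k bd c : ℕ} {ys : List (ℕ × ℕ)}
    (hs : ys.map Prod.fst = bs) {P : List (ℕ × List ℕ)} (hc : chk k z v ys P bd = true) (h7 : Nat.card U = c)
    (h8 : bd < 2 * (2 * j + 1) * c) :
    ∃ A : Subgroup Co0, Nat.card A = 2 * j + 1 ∧
      ∃ _ : ((A ⊔ center Co0).subgroupOf (centralizer (A : Set Co0))).Normal,
        Nonempty (U ≃* centralizer (A : Set Co0) ⧸ (A ⊔ center Co0).subgroupOf (centralizer (A : Set Co0))) := by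
  have := finite_co0
  have := Fact.mk hp
  obtain ⟨t, ht⟩ := exists_letters hin
  let g : ℕ → Co0 := fun x => t x
  have k : ∀ w : List ℕ, (∀ x ∈ w, x < 1 + L) → evc X w = gc (ev g w) := fun w hw =>
    (gc_ev fun x hx => ht x (hL ▸ hw x hx)).symm
  have kr : ∀ n, evc X (List.replicate n 0) = gc (g 0 ^ n) := fun n => by
    rw [k _ fun x hx => by rw [List.eq_of_mem_replicate hx]; omega, ev_replicate]
  have a1 : g 0 ^ (2 * j + 1) = negCo := gc_injective (by rw [← kr, h1, gc_negCo])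
  have a0 : evc X [0, 0] = gc (g 0 ^ 2) := kr 2
  have a2 : negCo ^ 2 = 1 := by
    have := pow_card_eq_one' (x := (⟨negCo, (Leech.mem_center_iff _).mpr (Or.inr rfl)⟩ : center Co0))
    rw [card_center] at this
    exact congrArg Subtype.val this
  have a3 : orderOf (g 0 ^ 2) = 2 * j + 1 := orderOf_eq_prime (by rw [← pow_mul, mul_comm, pow_mul, a1, a2])
    fun e => h2 (by rw [a0, e, gc_one])
  have a4 : ∀ x < 1 + L, Commute (g x) (g 0) := fun x hx => by
    rcases Nat.eq_zero_or_pos x with rfl | h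
    · rfl
    · obtain ⟨x, rfl⟩ := Nat.exists_eq_add_of_le h
      have := h3 x (by omega)
      rw [k _ (by simp; omega), k _ (by simp; omega)] at this
      show _ = _
      simpa using gc_injective this
  have a5 : gen g 1 = zpowers (g 0 ^ 2) ⊔ center Co0 := by
    rw [gen_one]
    refine le_antisymm (zpowers_le.mpr ?_) (sup_le (zpowers_le.mpr (npow_mem_zpowers _ _)) fun c hc => ?_)
    · exact (congrArg (· ∈ _) (show ((g 0 ^ 2) ^ j)⁻¹ * negCo = g 0 by rw [← a1]; group)).mp <| mul_mem_sup (inv_mem (npow_mem_zpowers _ _)) ((Leech.mem_center_iff _).mpr (Or.inr rfl))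
    · rcases (Leech.mem_center_iff _).mp hc with rfl | rfl
      exacts [one_mem _, a1 ▸ npow_mem_zpowers _ _]
  have a6 : 2 * (2 * j + 1) ≤ Nat.card (gen g 1) := by
    rw [← a3, ← Nat.card_zpowers]
    refine two_mul_card_le (x := negCo) (a5 ▸ le_sup_left)
      (a5 ▸ mem_sup_right ((Leech.mem_center_iff _).mpr (Or.inr rfl))) fun h => ?_
    have := orderOf_dvd_of_mem_zpowers h
    rw [a3, orderOf_eq_prime a2 negCo_ne_one] at this
    omega
  have a7 : Nat.card (centralizer (zpowers (g 0 ^ 2) : Set Co0)) ≤ 2 * bd := by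
    refine le_trans ?_ (Nat.mul_le_mul_left 2 (cent hz (h6.trans a0) hs hc))
    rw [← card_center, ← SetLike.coe_sort_coe (centralizer {_}), ← QuotientGroup.card_preimage_mk]
    exact card_le_of_le (K := (centralizer {_}).comap (QuotientGroup.mk' _)) fun c hc =>
      mem_centralizer_singleton_iff.mpr (by rw [← map_mul, ← map_mul, hc _ (mem_zpowers _)])
  obtain ⟨-, hn, e, -⟩ := quot_gen (s := g) (a := 1) hU hR (C := centralizer (zpowers (g 0 ^ 2) : Set Co0))
    (fun x hx => by rintro _ ⟨n, rfl⟩; exact (((a4 x hx).pow_right 2).zpow_right n).eq.symm)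
    (fun x hx i hi => by
      rw [Nat.lt_one_iff.mp hi, (a4 _ (by omega)).eq, mul_inv_cancel_right]; exact letter_mem_gen one_pos)
    (fun r hr => by
      have := h4 r hr
      rw [force_eq, Golay.sumL_eq] at this
      obtain ⟨_, h, h'⟩ := List.exists_mem_ne_zero_of_sum_ne_zero this
      obtain ⟨n, -, rfl⟩ := List.mem_map.mp h
      rw [ne_eq, ite_eq_right_iff, not_forall, k _ (by simpa using hR r hr), kr] at h'
      rw [gc_injective h'.1, gen_one]
      exact npow_mem_zpowers _ _) (v := [x]) (by simpa using hx)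
    (fun h => h5 (by
      obtain ⟨n, hn⟩ := gen_one g ▸ h
      rw [k _ (by simp; omega), k _ (by simp; omega)]
      simp only [List.map_cons, List.map_nil, ev_single] at hn
      simp only [ev_cons, ev_nil, mul_one, ← hn, ((a4 (1 + y) (by omega)).zpow_right n).eq]))
    (a7.trans_lt (Nat.mul_lt_mul_of_pos_left (h8.trans_le (h7 ▸ Nat.mul_le_mul_right _ a6)) two_pos))
  refine ⟨zpowers (g 0 ^ 2), by rw [Nat.card_zpowers, a3], ?_⟩
  rw [← a5]
  exact ⟨hn, ⟨e⟩⟩

end Cfsg.Agent.H3x.Lc
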