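import Cfsg.Agent.H3x.Lc

set_option autoImplicit false
set_option maxRecDepth 100000

/-! Centralisers in the Conway groups: a finer refinement. -/

namespace Cfsg.Agent.H3x.Ld
open Cfsg.Agent.Comp Cfsg.Agent.Schur Cfsg.Agent.R3 Cfsg.Agent.Leech Subgroup Cfsg.Agent.SchurG.Co1 MulAction
open Cfsg.Agent.Golay (force force_eq In)
open Lc (pr gr1 gr2 link bs base)

/-- the points `y` of the list that are joined with their image under `z` -/
noncomputable def selZ (n D : Nat) (R : List Net) (z : List Nat) (c : Nat → Bool) (ws : List (Nat × List Nat)) :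
    Nat → Bool :=
  @List.rec _ (fun _ => Nat → Bool) c (fun e _ ih m => band (Nat.blt e.1 n) (band (mem1 R e.2 (pt (nat_lit 0)) e.1)
    (frc (cond (mem1 R (e.2 ++ z) D e.1) (Nat.lor (pt e.1) m) m) ih))) ws

noncomputable def cenD (n B D D' k : Nat) (R : List Net) (z u : List Nat) (ys : List (Nat × Nat)) (x : Nat)
    (w : List Nat) (ws P : List (Nat × List Nat)) (bd : Nat) : Bool :=
  band (Nat.blt x n) (band (mem1 R w (pt (nat_lit 0)) x)
    (frc (runZ (nat_lit 1) R w D) fun r => frc (runZ (nat_lit 1) R w D') fun r' => frc (pt x) fun p =>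
      addZ R z (addZ R z (addZ R z (fun L =>
        band (Nat.beq (ptsS (ws.map Prod.fst)) (cell n L (nth (nat_lit 0) (ws.map Prod.fst) (nat_lit 0))))
          (selZ n D R z (fun m => cenC n B D D' k R z u ys P (m :: L) (Nat.div bd n)) ws (nat_lit 0))) k p) k r') k r []))

section
variable {M A : Subgroup (Equiv.Perm ℕ)} {n B D D' k : ℕ} {R : List Net} {z : List ℕ}

theorem selZ_sound (X : Gr M n B D R) {c : ℕ → Bool} (ws : List (ℕ × List ℕ)) : ∀ m, selZ n D R z c ws m = true →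
    ∃ m', c m' = true ∧ ∀ i, m'.testBit i ↔
      m.testBit i ∨ (i ∈ ws.map Prod.fst ∧ adj0 M n D i (ev (sig R) z i)) := by
  induction ws with
  | nil => exact fun m h => ⟨m, h, by simp⟩
  | cons e ws ih =>
    intro m h
    change band _ (band _ (frc _ (selZ n D R z c ws))) = true at h
    rw [band_eq, band_eq, frc_eq, Nat.blt_eq] at h
    obtain ⟨m', h1, h2⟩ := ih _ h.2.2
    refine ⟨m', h1, fun i => ?_⟩
    have h3 := X.rowW h.1 h.2.1 (Bd.lt (X.ok.ev_mem z) h.1)
    rw [runZ_eq, testBit_runW1 X.ok _ _ (Bd.lt (X.ok.ev_mem z) h.1), ← Equiv.Perm.mul_apply, ← ev_append,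
      ← mem1_eq X.ok _ _ h.1] at h3
    rw [h2, List.map_cons, List.mem_cons]
    cases h4 : mem1 R (e.2 ++ z) D e.1 <;> rw [h4] at h3
    · have := mt h3.mpr (by simp)
      rw [cond_false]
      exact or_congr_right ⟨fun h => ⟨Or.inr h.1, h.2⟩, fun h => ⟨h.1.resolve_left fun e => this (e ▸ h.2), h.2⟩⟩
    · have := h3.mp rfl
      rw [cond_true, testBit_lor, testBit_pt, Bool.or_eq_true, decide_eq_true_eq]
      constructor
      · rintro ((rfl | h) | h)
        exacts [Or.inr ⟨Or.inl rfl, this⟩, Or.inl h, Or.inr ⟨Or.inr h.1, h.2⟩]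
      · rintro (h | ⟨rfl | h, h'⟩)
        exacts [Or.inl (Or.inr h), Or.inl (Or.inl rfl), Or.inr ⟨h, h'⟩]

theorem cenD_sound (X : Gr M n B D R) (X' : Gr M n B D' R) {u w : List ℕ} {ys : List (ℕ × ℕ)}
    (hb : Comp.IsBase M (ys.map Prod.fst)) {ws P : List (ℕ × List ℕ)} {x bd : ℕ} (hA : A ≤ M)
    (hz : ∀ σ ∈ A, σ * ev (sig R) z = ev (sig R) z * σ) (h : cenD n B D D' k R z u ys x w ws P bd = true) :
    Nat.card A ≤ bd := by
  simp only [cenD, band_eq, frc_eq, Nat.blt_eq] at h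
  have := finite_of_le_Bd (hA.trans X.bd)
  have a1 : A ⊓ stabilizer _ x ≤ M := inf_le_left.trans hA
  have a2 : ∀ σ ∈ A ⊓ stabilizer _ x, σ * ev (sig R) z = ev (sig R) z * σ := fun σ hσ => hz σ hσ.1
  have row : ∀ {E}, Gr M n B E R → ∀ σ ∈ A ⊓ stabilizer _ x, ∀ i < n,
      (runZ (nat_lit 1) R w E).testBit (σ i) = (runZ (nat_lit 1) R w E).testBit i := fun Y σ hσ i hi => by
    rw [Bool.eq_iff_iff, Y.rowW h.1 h.2.1 hi, Y.rowW h.1 h.2.1 (Bd.lt (X.bd (a1 hσ)) hi),
      ← adj0_smul (a1 hσ) x i, show σ x = x from hσ.2]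
  have h1 : Nat.card (A ⊓ stabilizer _ x : Subgroup _) ≤ Nat.div bd n :=
    addZ_sound X.ok a2 (a1.trans X.bd) (fun L hL => addZ_sound X.ok a2 (a1.trans X.bd)
    (fun L hL => addZ_sound X.ok a2 (a1.trans X.bd) (fun L hL h => by
      rw [band_eq, Nat.beq_eq] at h
      obtain ⟨m, h1, h2⟩ := selZ_sound X ws _ h.2
      refine cenC_sound X X' hb P _ _ _ a1 a2 (List.forall_mem_cons.mpr ⟨fun σ hσ i hi => ?_, hL⟩) h1
      rw [Bool.eq_iff_iff, h2, h2, ← testBit_ptsS, ← testBit_ptsS, h.1, testBit_cell, testBit_cell,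
        ← Equiv.Perm.mul_apply, ← a2 σ hσ, Equiv.Perm.mul_apply, adj0_smul (a1 hσ)]
      exact or_congr (by simp) (and_congr_left' (and_congr (iff_of_true (Bd.lt (X.bd (a1 hσ)) hi) hi)
        (forall₂_congr fun m hm => by rw [hL m hm σ hσ i hi])))) k _ L (fun σ hσ i _ => by
      rw [testBit_pt, testBit_pt, decide_eq_decide, ← σ.injective.eq_iff (a := x) (b := i),
        show σ x = x from hσ.2]) hL) k _ L (row X') hL) k _ [] (row X) (by simp) h.2.2
  have h2 : (orbit A x).ncard ≤ n := by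
    rw [← Set.ncard_Iio_nat n]
    refine Set.ncard_le_ncard ?_ (Set.finite_Iio n)
    rintro _ ⟨σ, rfl⟩
    exact Bd.lt (X.bd (hA σ.2)) h.1
  rw [← ((stabilizer _ x).subgroupOf A).index_mul_card, ← Subgroup.relIndex, relIndex_stabilizer,
    ← Subgroup.card_map_of_injective A.subtype_injective, Subgroup.subgroupOf_map_subtype, inf_comm]
  exact (Nat.mul_le_mul h2 h1).trans (Nat.mul_div_le _ _)

end

/-- the check for the order of a centraliser -/
noncomputable def chk (k : ℕ) (z u : List ℕ) (ys : List (ℕ × ℕ)) (x : ℕ) (w : List ℕ) (ws P : List (ℕ × List ℕ))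
    (bd : ℕ) : Bool :=
  cenD (nat_lit 98280) (nat_lit 17) (ivl (nat_lit 1) (nat_lit 4600)) (ivl (nat_lit 51176) (nat_lit 47104)) k T z u ys
    x w ws P bd

theorem cent {g : Co0} {z u w : List ℕ} (hz : ∀ x ∈ z, x < 16) (h : evc cs z = gc g) {k bd x : ℕ}
    {ys : List (ℕ × ℕ)} (hy : ys.map Prod.fst = bs) {ws P : List (ℕ × List ℕ)}
    (hc : chk k z u ys x w ws P bd = true) :
    Nat.card (centralizer ({QuotientGroup.mk' _ g} : Set Spor.Co1)) ≤ bd := by
  obtain ⟨t, e, h1, h2⟩ := link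
  have h3 : e (ev s z) = QuotientGroup.mk' _ g := by
    rw [← gc_injective ((gc_ev fun x hx => h1 x (hz x hx)).trans h), map_ev t]
    exact (map_ev s e.toMonoidHom z).trans (ev_congr fun x hx => h2 x (hz x hx))
  rw [← h3, ← Nat.card_congr (cenEquiv e _).toEquiv, ← card_map_of_injective pr.inj]
  refine cenD_sound gr1 gr2 (hy ▸ base) (map_le_range _ _) ?_ hc
  rintro _ ⟨c, hc, rfl⟩
  rw [← rep.ev_eq hz, ← map_mul, ← map_mul, mem_centralizer_singleton_iff.mp hc]

theorem sect {X : List ℕ} (hin : In gc ⊤ X) {j L : ℕ} (hp : (2 * j + 1).Prime) (hL : X.length = 1 + L)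
    {U : Type} [Group U] [IsSimpleGroup U] {u : ℕ → U} {RU : List (List ℕ)} (hU : IsPres u L RU)
    (hR : ∀ w ∈ RU, ∀ x ∈ w, x < L) (h1 : evc X (List.replicate (2 * j + 1) 0) = gneg) (h2 : evc X [0, 0] ≠ gone)
    (h3 : ∀ x < L, evc X [1 + x, 0] = evc X [0, 1 + x])
    (h4 : ∀ r ∈ RU, force (evc X (r.map (1 + ·))) (fun a => Golay.sumL (fun k =>
      if a = evc X (List.replicate k 0) then 1 else 0) (List.range (4 * j + 2))) ≠ 0)
    {x y : ℕ} (hx : x < L) (hy : y < L) (h5 : evc X [1 + x, 1 + y] ≠ evc X [1 + y, 1 + x])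
    {z v w : List ℕ} (hz : ∀ x ∈ z, x < 16) (h6 : evc cs z = evc X [0, 0]) {k bd c x0 : ℕ} {ys : List (ℕ × ℕ)}
    (hs : ys.map Prod.fst = bs) {ws P : List (ℕ × List ℕ)} (hc : chk k z v ys x0 w ws P bd = true)
    (h7 : Nat.card U = c)
    (h8 : bd < 2 * (2 * j + 1) * c) :
    ∃ A : Subgroup Co0, Nat.card A = 2 * j + 1 ∧
      ∃ _ : ((A ⊔ center Co0).subgroupOf (centralizer (A : Set Co0))).Normal,
        Nonempty (U ≃* centralizer (A : Set Co0) ⧸ (A ⊔ center Co0).subgroupOf (centralizer (A : Set Co0))) := by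
  have := finite_co0
  have := Fact.mk hp
  obtain ⟨t, ht⟩ := exists_letters hin
  let g : ℕ → Co0 := fun x => t x
  have k : ∀ w : List ℕ, (∀ x ∈ w, x < 1 + L) → evc X w = gc (ev g w) := fun w hw =>
    (gc_ev fun x hx => ht x (hL ▸ hw x hx)).symm
  have kr : ∀ n, evc X (List.replicate n 0) = gc (g 0 ^ n) := fun n => by
    rw [k _ fun x hx => by rw [List.eq_of_mem_replicate hx]; omega, ev_replicate]
  have a1 : g 0 ^ (2 * j + 1) = negCo := gc_injective (by rw [← kr, h1, gc_negCo])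
  have a0 : evc X [0, 0] = gc (g 0 ^ 2) := kr 2
  have a2 : negCo ^ 2 = 1 := by
    have := pow_card_eq_one' (x := (⟨negCo, (Leech.mem_center_iff _).mpr (Or.inr rfl)⟩ : center Co0))
    rw [card_center] at this
    exact congrArg Subtype.val this
  have a3 : orderOf (g 0 ^ 2) = 2 * j + 1 := orderOf_eq_prime (by rw [← pow_mul, mul_comm, pow_mul, a1, a2])
    fun e => h2 (by rw [a0, e, gc_one])
  have a4 : ∀ x < 1 + L, Commute (g x) (g 0) := fun x hx => by
    rcases Nat.eq_zero_or_pos x with rfl | h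
    · rfl
    · obtain ⟨x, rfl⟩ := Nat.exists_eq_add_of_le h
      have := h3 x (by omega)
      rw [k _ (by simp; omega), k _ (by simp; omega)] at this
      show _ = _
      simpa using gc_injective this
  have a5 : gen g 1 = zpowers (g 0 ^ 2) ⊔ center Co0 := by
    rw [gen_one]
    refine le_antisymm (zpowers_le.mpr ?_) (sup_le (zpowers_le.mpr (npow_mem_zpowers _ _)) fun c hc => ?_)
    · exact (congrArg (· ∈ _) (show ((g 0 ^ 2) ^ j)⁻¹ * negCo = g 0 by rw [← a1]; group)).mp <| mul_mem_sup (inv_mem (npow_mem_zpowers _ _)) ((Leech.mem_center_iff _).mpr (Or.inr rfl))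
    · rcases (Leech.mem_center_iff _).mp hc with rfl | rfl
      exacts [one_mem _, a1 ▸ npow_mem_zpowers _ _]
  have a6 : 2 * (2 * j + 1) ≤ Nat.card (gen g 1) := by
    rw [← a3, ← Nat.card_zpowers]
    refine two_mul_card_le (x := negCo) (a5 ▸ le_sup_left)
      (a5 ▸ mem_sup_right ((Leech.mem_center_iff _).mpr (Or.inr rfl))) fun h => ?_
    have := orderOf_dvd_of_mem_zpowers h
    rw [a3, orderOf_eq_prime a2 negCo_ne_one] at this
    omega
  have a7 : Nat.card (centralizer (zpowers (g 0 ^ 2) : Set Co0)) ≤ 2 * bd := by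
    refine le_trans ?_ (Nat.mul_le_mul_left 2 (cent hz (h6.trans a0) hs hc))
    rw [← card_center, ← SetLike.coe_sort_coe (centralizer {_}), ← QuotientGroup.card_preimage_mk]
    exact card_le_of_le (K := (centralizer {_}).comap (QuotientGroup.mk' _)) fun c hc =>
      mem_centralizer_singleton_iff.mpr (by rw [← map_mul, ← map_mul, hc _ (mem_zpowers _)])
  obtain ⟨-, hn, e, -⟩ := quot_gen (s := g) (a := 1) hU hR (C := centralizer (zpowers (g 0 ^ 2) : Set Co0))
    (fun x hx => by rintro _ ⟨n, rfl⟩; exact (((a4 x hx).pow_right 2).zpow_right n).eq.symm)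
    (fun x hx i hi => by
      rw [Nat.lt_one_iff.mp hi, (a4 _ (by omega)).eq, mul_inv_cancel_right]; exact letter_mem_gen one_pos)
    (fun r hr => by
      have := h4 r hr
      rw [force_eq, Golay.sumL_eq] at this
      obtain ⟨_, h, h'⟩ := List.exists_mem_ne_zero_of_sum_ne_zero this
      obtain ⟨n, -, rfl⟩ := List.mem_map.mp h
      rw [ne_eq, ite_eq_right_iff, not_forall, k _ (by simpa using hR r hr), kr] at h'
      rw [gc_injective h'.1, gen_one]
      exact npow_mem_zpowers _ _) (v := [x]) (by simpa using hx)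
    (fun h => h5 (by
      obtain ⟨n, hn⟩ := gen_one g ▸ h
      rw [k _ (by simp; omega), k _ (by simp; omega)]
      simp only [List.map_cons, List.map_nil, ev_single] at hn
      simp only [ev_cons, ev_nil, mul_one, ← hn, ((a4 (1 + y) (by omega)).zpow_right n).eq]))
    (a7.trans_lt (Nat.mul_lt_mul_of_pos_left (h8.trans_le (h7 ▸ Nat.mul_le_mul_right _ a6)) two_pos))
  refine ⟨zpowers (g 0 ^ 2), by rw [Nat.card_zpowers, a3], ?_⟩
  rw [← a5]
  exact ⟨hn, ⟨e⟩⟩

end Cfsg.Agent.H3x.Ld
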