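import Cfsg.Agent.SchurG.Om6.Main
import Cfsg.Agent.H3x.Hyp
import Cfsg.Agent.S0288

set_option autoImplicit false
set_option maxRecDepth 100000

namespace Cfsg.Agent.H3x
open Cfsg.Agent.Comp Cfsg.Agent.Schur Matrix

namespace Om6
open Cfsg.Agent.SchurG.Om6

def I : List Nat := [nat_lit 1, nat_lit 8, nat_lit 64, nat_lit 512, nat_lit 4096, nat_lit 32768]

def C : List Nat := [nat_lit 1, nat_lit 8, nat_lit 64, nat_lit 512, nat_lit 4096, nat_lit 32768]

def O : List Nat := [nat_lit 1, nat_lit 8, nat_lit 64, nat_lit 512, nat_lit 4096, nat_lit 32768]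

def en : (Fin 2 ⊕ Fin 2) ⊕ Fin 2 → ℕ := Sum.elim (Sum.elim Fin.val fun i => 2 + i.val) fun i => 4 + i.val

def bs : List ((Fin 2 ⊕ Fin 2) ⊕ Fin 2 → ZMod 2) := (((List.finRange 2).map Sum.inl ++ (List.finRange 2).map Sum.inr).map Sum.inl ++ (List.finRange 2).map Sum.inr).map (fun j => Pi.single j 1)

theorem ms : MS (nat_lit 2) (nat_lit 3) (nat_lit 7) (nat_lit 6) I C O bs en (1 : ZMod 2) :=
  ⟨by decide +kernel, by decide +kernel, by decide +kernel, by decide +kernel, by decide +kernel⟩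

def M : List (List Nat) :=
  [[nat_lit 9, nat_lit 8, nat_lit 72, nat_lit 37441, nat_lit 4104, nat_lit 32776],
   [nat_lit 1, nat_lit 8, nat_lit 64, nat_lit 4616, nat_lit 4096, nat_lit 32776],
   [nat_lit 1, nat_lit 8, nat_lit 72, nat_lit 4617, nat_lit 4096, nat_lit 32776],
   [nat_lit 1, nat_lit 8, nat_lit 72, nat_lit 33289, nat_lit 4104, nat_lit 32768],
   [nat_lit 1, nat_lit 8, nat_lit 32841, nat_lit 4616, nat_lit 36873, nat_lit 4097],
   [nat_lit 1, nat_lit 8, nat_lit 36929, nat_lit 33289, nat_lit 32769, nat_lit 36872],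
   [nat_lit 8, nat_lit 1, nat_lit 512, nat_lit 64, nat_lit 4096, nat_lit 32768],
   [nat_lit 4161, nat_lit 8, nat_lit 32841, nat_lit 33289, nat_lit 36873, nat_lit 36928]]

theorem Mok : MOK (nat_lit 2) (nat_lit 3) bs en M := ms.mok (by decide +kernel)

/-- the matrices of the letters -/
def Mm : ℕ → Matrix ((Fin 2 ⊕ Fin 2) ⊕ Fin 2) ((Fin 2 ⊕ Fin 2) ⊕ Fin 2) (ZMod 2) := mat (nat_lit 3) bs en M

theorem satM : Sat Mm R := ms.sat Mok (by decide +kernel)

def A : Matrix ((Fin 2 ⊕ Fin 2) ⊕ Fin 2) ((Fin 2 ⊕ Fin 2) ⊕ Fin 2) (ZMod 2) := fromBlocks (fromBlocks 0 1 0 0) 0 0 !![1, 1; 0, 1]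

theorem isom : ∀ x < 8, (∀ i, ((Mm x)ᵀ * A * Mm x) i i = A i i) ∧
    ∀ i j, ((Mm x)ᵀ * A * Mm x) i j + ((Mm x)ᵀ * A * Mm x) j i = A i j + A j i := by
  decide +kernel

theorem iso : Nonempty (G ≃* Omega (ZMod 2) (quadFormMinus 2 (ZMod 2) 1 1)) := by
  have := simple
  refine equiv_omega pres hR (by rw [card.2.1]; norm_num) (fun x hx =>
    mem_isom (RingHom.id _) (quadFormMinus_eq 2) (isUnit_of_sat satM (L := 8) (by decide +kernel) x hx)
      (isom x hx).1 (isom x hx).2) satM (by norm_num) (by decide +kernel) ?_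
  rw [card.2.1]
  exact (S0288.result (ZMod.card 2) 3 (by norm_num) 1 1 (by decide)).trans (by simp [Finset.prod_range_succ])

end Om6

end Cfsg.Agent.H3x
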